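import Cfsg.Agent.Lib.Char.SL2C
import Cfsg.Agent.S2330

/-!
# Characters of `GL₂`
-/

set_option autoImplicit false

open Cfsg Cfsg.Agent.Char Cfsg.Agent.SL2 Matrix
open scoped ComplexConjugate MatrixGroups

namespace Cfsg.Agent.Ch2

variable {F : Type*} [Field F]

/-- Upper triangular invertible matrices. -/
noncomputable def bG (a d : Fˣ) (t : F) : GL (Fin 2) F :=
  GeneralLinearGroup.mkOfDetNeZero !![(a : F), t; 0, d] (by simp [det_fin_two])

@[simp] theorem coe_bG (a d : Fˣ) (t : F) : (bG a d t).1 = !![(a : F), t; 0, d] := rfl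

theorem GL_upper_det {g : GL (Fin 2) F} (h : g.1 1 0 = 0) : g.1.det = g.1 0 0 * g.1 1 1 := by
  rw [det_fin_two, h]; ring

theorem GL_upper_ne_zero {g : GL (Fin 2) F} (h : g.1 1 0 = 0) : g.1 0 0 ≠ 0 ∧ g.1 1 1 ≠ 0 :=
  mul_ne_zero_iff.mp (GL_upper_det h ▸ g.det_ne_zero)

theorem eq_bG {g : GL (Fin 2) F} (h : g.1 1 0 = 0) :
    g = bG (Units.mk0 _ (GL_upper_ne_zero h).1) (Units.mk0 _ (GL_upper_ne_zero h).2) (g.1 0 1) :=
  Units.ext (by apply mat_ext <;> simp [h])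

/-- Parametrisation of the Borel subgroup of `GL₂`. -/
noncomputable def borelEquivG (F : Type*) [Field F] : Fˣ × Fˣ × F ≃ upperTriangularGL 2 F :=
  Equiv.ofBijective (fun p => ⟨bG p.1 p.2.1 p.2.2, by rw [mem_upperTriangularGL]; simp⟩) ⟨by
    rintro ⟨a, d, s⟩ ⟨b, e, t⟩ h
    have h' := congrArg (fun x : upperTriangularGL 2 F => x.1.1) h
    simp only [coe_bG, mat_ext_iff] at h'
    simp only [of_apply, cons_val', cons_val_zero, cons_val_one, cons_val_fin_one] at h'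
    obtain ⟨h1, h2, -, h3⟩ := h'
    rw [Units.ext h1, Units.ext h3, h2], by
    rintro ⟨g, hg⟩
    rw [mem_upperTriangularGL] at hg
    exact ⟨(_, _, _), Subtype.ext (eq_bG hg).symm⟩⟩

theorem borelEquivG_apply (p : Fˣ × Fˣ × F) :
    (borelEquivG F p : GL (Fin 2) F) = bG p.1 p.2.1 p.2.2 := rfl

theorem isConj_bG_split {a d : Fˣ} (h : a ≠ d) (s t : F) : IsConj (bG a d s) (bG a d t) :=
  GL_isConj_of_not_isScal (by simp [IsScal, Units.ext_iff.not.mp h])
    (by simp [IsScal, Units.ext_iff.not.mp h]) (by simp [trace_fin_two]) (by simp [det_fin_two])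

theorem isConj_bG_par (a : Fˣ) {s t : F} (hs : s ≠ 0) (ht : t ≠ 0) :
    IsConj (bG a a s) (bG a a t) :=
  GL_isConj_of_not_isScal (by simp [IsScal, hs]) (by simp [IsScal, ht]) (by simp [trace_fin_two])
    (by simp [det_fin_two])

theorem bG_one : bG (1 : Fˣ) 1 0 = 1 := Units.ext (by apply mat_ext <;> simp)

variable [Fintype F] [DecidableEq F]

omit [DecidableEq F] in
theorem cast_card_BG : (Nat.card (upperTriangularGL 2 F) : ℂ) =
    ((Fintype.card F : ℂ) - 1) ^ 2 * Fintype.card F := by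
  rw [← Nat.card_congr (borelEquivG F), Nat.card_prod, Nat.card_prod, Nat.card_units,
    Nat.card_eq_fintype_card]
  push_cast [cast_q_sub_one]
  ring

omit [DecidableEq F] in
theorem cast_card_GL2 : (Nat.card (GL (Fin 2) F) : ℂ) =
    Fintype.card F * ((Fintype.card F : ℂ) - 1) ^ 2 * (Fintype.card F + 1) := by
  have h1 : 1 ≤ Fintype.card F ^ 2 := Nat.one_le_pow _ _ Fintype.card_pos
  have h2 : Fintype.card F ≤ Fintype.card F ^ 2 := Nat.le_self_pow two_ne_zero _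
  rw [card_GL2, Nat.card_eq_fintype_card]
  push_cast [h1, h2]
  ring

/-- The constant term along the unipotent radical. -/
noncomputable def cstG (f : GL (Fin 2) F → ℂ) (a d : Fˣ) : ℂ := ∑ t : F, f (bG a d t)

omit [DecidableEq F] in
theorem cstG_split {f : GL (Fin 2) F → ℂ} (hf : IsClassFunction _ f) {a d : Fˣ} (h : a ≠ d)
    (t : F) : cstG f a d = Fintype.card F * f (bG a d t) := by
  rw [cstG, Finset.sum_congr rfl fun s _ => class_eq_of_isConj hf (isConj_bG_split h s t)]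
  simp

theorem cstG_par {f : GL (Fin 2) F → ℂ} (hf : IsClassFunction _ f) (a : Fˣ) :
    cstG f a a = f (bG a a 0) + ((Fintype.card F : ℂ) - 1) * f (bG a a 1) := by
  rw [cstG, ← Finset.add_sum_erase _ _ (Finset.mem_univ 0), Finset.sum_congr rfl fun s hs =>
    class_eq_of_isConj hf (isConj_bG_par a (Finset.ne_of_mem_erase hs) one_ne_zero)]
  simp [Finset.card_erase_of_mem, cast_q_sub_one]

theorem inner_WG {f : GL (Fin 2) F → ℂ} (hf : IsClassFunction _ f) (α β : MulChar F ℂ) :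
    classInner f (WG α β) = (((Fintype.card F : ℂ) - 1) ^ 2 * Fintype.card F)⁻¹ *
      ∑ a : Fˣ, (∑ d : Fˣ, cstG f a d * conj (β d)) * conj (α a) := by
  classical
  rw [WG, inner_indFun_right _ _ hf, classInner, cast_card_BG, ← (borelEquivG F).sum_comp,
    Fintype.sum_prod_type]
  congr 1
  refine Finset.sum_congr rfl fun a _ => ?_
  rw [Fintype.sum_prod_type, Finset.sum_mul]
  refine Finset.sum_congr rfl fun d _ => ?_
  simp only [borelEquivG_apply, coe_bG, cstG, Finset.sum_mul]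
  refine Finset.sum_congr rfl fun t _ => ?_
  simp; ring

theorem isClass_WG (α β : MulChar F ℂ) : IsClassFunction _ (WG α β) :=
  isClass_of_isChar (isChar_WG α β)

theorem WG_scal (α β : MulChar F ℂ) {g : GL (Fin 2) F} (h : IsScal g.1) :
    WG α β g = ((Fintype.card F : ℂ) + 1) * (α (g.1 0 0) * β (g.1 0 0)) := by
  rw [WG_eq, Wm_scal _ h]

theorem WG_par (α β : MulChar F ℂ) {g : GL (Fin 2) F} (h : g.1 1 0 = 0) (he : g.1 0 0 = g.1 1 1)
    (hb : g.1 0 1 ≠ 0) : WG α β g = α (g.1 0 0) * β (g.1 0 0) := by rw [WG_eq, Wm_par _ h he hb]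

theorem WG_split (α β : MulChar F ℂ) {g : GL (Fin 2) F} (h : g.1 1 0 = 0)
    (hne : g.1 0 0 ≠ g.1 1 1) :
    WG α β g = α (g.1 0 0) * β (g.1 1 1) + α (g.1 1 1) * β (g.1 0 0) := by
  rw [WG_eq, Wm_split _ h hne]

theorem WG_noRoot (α β : MulChar F ℂ) {g : GL (Fin 2) F} (h : NoRoot g.1) : WG α β g = 0 := by
  rw [WG_eq, Wm_noRoot _ h]

theorem WG_one (α β : MulChar F ℂ) : WG α β 1 = (Fintype.card F : ℂ) + 1 := by
  rw [WG_scal α β isScal_one]; simp

theorem cstG_WG (α β : MulChar F ℂ) (a d : Fˣ) :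
    cstG (WG α β) a d = (Fintype.card F : ℂ) * (α a * β d + α d * β a) := by
  by_cases h : a = d
  · subst h
    rw [cstG_par (isClass_WG α β), WG_scal _ _ (by simp [IsScal]),
      WG_par _ _ (by simp) (by simp) (by simp)]
    simp; ring
  · rw [cstG_split (isClass_WG α β) h 0, WG_split _ _ (by simp) (by simpa [Units.ext_iff] using h)]
    simp

open scoped Classical in
theorem inner_WG_of_cst {f : GL (Fin 2) F → ℂ} (hf : IsClassFunction _ f) {α β α' β' : MulChar F ℂ}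
    {s t : ℂ} (h : ∀ a d, cstG f a d = (Fintype.card F : ℂ) * (s * (α a * β d) + t * (α' a * β' d)))
    (γ δ : MulChar F ℂ) : classInner f (WG γ δ) =
      s * (if α = γ ∧ β = δ then 1 else 0) + t * (if α' = γ ∧ β' = δ then 1 else 0) := by
  rw [inner_WG hf]
  have e : ∀ a : Fˣ, (∑ d : Fˣ, cstG f a d * conj (δ d)) * conj (γ a) =
      Fintype.card F * (s * (∑ d : Fˣ, β d * conj (δ d)) * (α a * conj (γ a)) +
        t * (∑ d : Fˣ, β' d * conj (δ d)) * (α' a * conj (γ a))) := fun a => by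
    simp only [h, Finset.mul_sum, Finset.sum_mul, mul_add, ← Finset.sum_add_distrib]
    exact Finset.sum_congr rfl fun d _ => by ring
  simp only [e, ← Finset.mul_sum, Finset.sum_add_distrib, sum_units_mulChar_mul_conj,
    Nat.card_eq_fintype_card]
  have := q_ne_zero (F := F)
  have := q_sub_one_ne_zero (F := F)
  by_cases h1 : α = γ <;> by_cases h2 : β = δ <;> by_cases h3 : α' = γ <;> by_cases h4 : β' = δ <;>
    simp only [h1, h2, h3, h4, if_true, if_false, and_self, and_true, and_false, false_and] <;>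
    field_simp <;> ring

open scoped Classical in
theorem inner_WG_WG (α β γ δ : MulChar F ℂ) : classInner (WG α β) (WG γ δ) =
    (if α = γ ∧ β = δ then 1 else 0) + (if β = γ ∧ α = δ then 1 else 0) := by
  rw [inner_WG_of_cst (isClass_WG α β) (α := α) (β := β) (α' := β) (β' := α) (s := 1) (t := 1)
    (fun a d => by rw [cstG_WG]; ring), one_mul, one_mul]

theorem isIrr_WG {α β : MulChar F ℂ} (h : α ≠ β) : IsIrrCharacter _ (WG α β) := by
  refine isIrr_of_inner_self (isChar_WG α β) ?_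
  rw [inner_WG_WG]; simp [h]

theorem WG_comm (α β : MulChar F ℂ) : WG α β = WG β α := by
  rw [← sub_eq_zero]
  apply eq_zero_of_inner_self
  simp only [Char.inner_sub_left, Char.inner_sub_right, inner_WG_WG, and_self, if_true]
  simp only [and_comm]
  ring

theorem WG_eq_iff {α β γ δ : MulChar F ℂ} :
    WG α β = WG γ δ ↔ (α = γ ∧ β = δ) ∨ (α = δ ∧ β = γ) := by
  constructor
  · intro h
    by_contra hcon
    rw [not_or] at hcon
    have h1 := inner_WG_WG α β γ δ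
    rw [if_neg hcon.1, if_neg (fun h => hcon.2 h.symm), ← h, inner_WG_WG, if_pos ⟨rfl, rfl⟩] at h1
    split_ifs at h1 <;> norm_num at h1
  · rintro (⟨rfl, rfl⟩ | ⟨rfl, rfl⟩)
    exacts [rfl, WG_comm _ _]

/-- The linear characters of `GL₂`. -/
noncomputable def LG (μ : MulChar F ℂ) : GL (Fin 2) F → ℂ := fun g => μ g.1.det

omit [Fintype F] [DecidableEq F] in
theorem isIrr_LG (μ : MulChar F ℂ) : IsIrrCharacter _ (LG μ) :=
  isIrr_of_mul (by simp [LG]) fun a b => by simp [LG]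

omit [Fintype F] [DecidableEq F] in
theorem LG_one (μ : MulChar F ℂ) : LG μ 1 = 1 := by simp [LG]

open scoped Classical in
theorem inner_LG_WG (μ γ δ : MulChar F ℂ) :
    classInner (LG μ) (WG γ δ) = if μ = γ ∧ μ = δ then 1 else 0 := by
  rw [inner_WG_of_cst (isClass_of_irr (isIrr_LG μ)) (α := μ) (β := μ) (α' := μ) (β' := μ) (s := 1)
    (t := 0) (fun a d => by simp [cstG, LG, det_fin_two])]
  simp

open scoped Classical in
theorem inner_WG_LG (μ γ δ : MulChar F ℂ) :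
    classInner (WG γ δ) (LG μ) = if μ = γ ∧ μ = δ then 1 else 0 := by
  rw [inner_char_comm (isChar_WG _ _) (isChar_of_irr (isIrr_LG μ)), inner_LG_WG]

theorem LG_injective : Function.Injective (LG : MulChar F ℂ → GL (Fin 2) F → ℂ) := by
  intro μ ν h
  have := inner_LG_WG μ μ μ
  rw [h, inner_LG_WG] at this
  by_contra hne
  simp [Ne.symm hne] at this

/-- The twisted Steinberg characters of `GL₂`. -/
noncomputable def StG (μ : MulChar F ℂ) : GL (Fin 2) F → ℂ := WG μ μ - LG μ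

theorem WG_self_eq (μ : MulChar F ℂ) : WG μ μ = LG μ + StG μ := by simp [StG]

theorem isIrr_StG (μ : MulChar F ℂ) : IsIrrCharacter _ (StG μ) := by
  refine isIrr_of_inner_self (isChar_sub_irr (isChar_WG μ μ) (isIrr_LG μ)
    (by simp [inner_WG_LG])) ?_
  rw [StG, Char.inner_sub_left, Char.inner_sub_right, Char.inner_sub_right, inner_WG_WG,
    inner_WG_LG, inner_LG_WG, inner_irr_self (isIrr_LG μ)]
  simp

open scoped Classical in
theorem inner_StG_WG (μ γ δ : MulChar F ℂ) :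
    classInner (StG μ) (WG γ δ) = if μ = γ ∧ μ = δ then 1 else 0 := by
  rw [StG, Char.inner_sub_left, inner_WG_WG, inner_LG_WG]; ring

theorem StG_injective : Function.Injective (StG : MulChar F ℂ → GL (Fin 2) F → ℂ) := by
  intro μ ν h
  have := inner_StG_WG μ μ μ
  rw [h, inner_StG_WG] at this
  by_contra hne
  simp [Ne.symm hne] at this

theorem StG_one (μ : MulChar F ℂ) : StG μ 1 = Fintype.card F := by simp [StG, WG_one, LG_one]

theorem StG_split (μ : MulChar F ℂ) {g : GL (Fin 2) F} (h : g.1 1 0 = 0)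
    (hne : g.1 0 0 ≠ g.1 1 1) : StG μ g = μ g.1.det := by
  rw [StG, Pi.sub_apply, WG_split _ _ h hne, LG, GL_upper_det h, map_mul]; ring

theorem StG_par (μ : MulChar F ℂ) {g : GL (Fin 2) F} (h : g.1 1 0 = 0)
    (he : g.1 0 0 = g.1 1 1) (hb : g.1 0 1 ≠ 0) : StG μ g = 0 := by
  rw [StG, Pi.sub_apply, WG_par _ _ h he hb, LG, GL_upper_det h, map_mul, he]; ring

theorem StG_noRoot (μ : MulChar F ℂ) {g : GL (Fin 2) F} (h : NoRoot g.1) :
    StG μ g = -μ g.1.det := by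
  rw [StG, Pi.sub_apply, WG_noRoot _ _ h, LG]; ring

/-- Cuspidal class functions. -/
def Cusp (χ : GL (Fin 2) F → ℂ) : Prop := ∀ α β : MulChar F ℂ, classInner χ (WG α β) = 0

theorem noncusp_cases {χ : GL (Fin 2) F → ℂ} (hχ : IsIrrCharacter _ χ) (h : ¬ Cusp χ) :
    (∃ μ, χ = LG μ) ∨ (∃ μ, χ = StG μ) ∨ ∃ α β, α ≠ β ∧ χ = WG α β := by
  simp only [Cusp, not_forall] at h
  obtain ⟨α, β, h⟩ := h
  by_cases he : α = β
  · subst he
    rw [inner_char_comm (isChar_of_irr hχ) (isChar_WG _ _), WG_self_eq] at h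
    rcases eq_or_eq_of_inner_add_ne_zero (isIrr_LG α) (isIrr_StG α) hχ h with e | e
    exacts [Or.inl ⟨α, e⟩, Or.inr (Or.inl ⟨α, e⟩)]
  · exact Or.inr (Or.inr ⟨α, β, he, eq_of_inner_irr_ne_zero hχ (isIrr_WG he) h⟩)

theorem not_cusp_LG (μ : MulChar F ℂ) : ¬ Cusp (LG μ) := fun h => by
  simpa [inner_LG_WG] using h μ μ

theorem not_cusp_StG (μ : MulChar F ℂ) : ¬ Cusp (StG μ) := fun h => by
  simpa [inner_StG_WG] using h μ μ

theorem not_cusp_WG {α β : MulChar F ℂ} (hne : α ≠ β) : ¬ Cusp (WG α β) := fun h => by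
  simpa [inner_WG_WG, hne] using h α β

theorem eq_zero_of_sum_mulChar {φ : Fˣ → ℂ}
    (h : ∀ α : MulChar F ℂ, ∑ a : Fˣ, φ a * conj (α a) = 0) (a : Fˣ) : φ a = 0 := by
  have := Fintype.ofFinite (Fˣ →* ℂˣ)
  rw [apply_eq_sum_unitsHom φ a]
  refine Finset.sum_eq_zero fun θ _ => ?_
  have := h (MulChar.ofUnitHom θ)
  simp only [MulChar.ofUnitHom_coe] at this
  rw [classInner, this]; simp

theorem Cusp.cst {χ : GL (Fin 2) F → ℂ} (hχ : IsClassFunction _ χ) (h : Cusp χ) (a d : Fˣ) :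
    cstG χ a d = 0 := by
  refine eq_zero_of_sum_mulChar (φ := fun d => cstG χ a d) (fun β => ?_) d
  refine eq_zero_of_sum_mulChar (φ := fun a => ∑ d : Fˣ, cstG χ a d * conj (β d)) (fun α => ?_) a
  have := h α β
  rw [inner_WG hχ, mul_eq_zero] at this
  refine this.resolve_left (inv_ne_zero ?_)
  exact mul_ne_zero (pow_ne_zero _ q_sub_one_ne_zero) q_ne_zero

theorem Cusp.split {χ : GL (Fin 2) F → ℂ} (hχ : IsClassFunction _ χ) (h : Cusp χ)
    {g : GL (Fin 2) F} (h10 : g.1 1 0 = 0) (hne : g.1 0 0 ≠ g.1 1 1) : χ g = 0 := by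
  have := h.cst hχ (Units.mk0 _ (GL_upper_ne_zero h10).1) (Units.mk0 _ (GL_upper_ne_zero h10).2)
  rw [cstG_split hχ (fun e => hne (congrArg Units.val e)) (g.1 0 1), ← eq_bG h10] at this
  exact (mul_eq_zero.mp this).resolve_left q_ne_zero

theorem Cusp.unip {χ : GL (Fin 2) F → ℂ} (hχ : IsClassFunction _ χ) (h : Cusp χ) :
    χ 1 + ((Fintype.card F : ℂ) - 1) * χ (bG 1 1 1) = 0 := by
  rw [← h.cst hχ 1 1, cstG_par hχ, bG_one]

theorem Cusp.exists_mul {χ : GL (Fin 2) F → ℂ} (hχ : IsIrrCharacter _ χ) (h : Cusp χ) :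
    ∃ m : ℕ, 1 ≤ m ∧ χ 1 = ((Fintype.card F : ℂ) - 1) * m := by
  obtain ⟨n, hn0, hn⟩ := exists_pos_degree hχ
  have h1 := h.unip (isClass_of_irr hχ)
  have h2 := q_sub_one_ne_zero (F := F)
  have : Fintype.card F - 1 ∣ n := by
    refine nat_dvd_of_isIntegral_div (by have := Fintype.one_lt_card (α := F); omega) ?_
    have e : (n : ℂ) / (Fintype.card F - 1 : ℕ) = -χ (bG 1 1 1) := by
      rw [cast_q_sub_one, ← hn]; field_simp; linear_combination h1
    rw [e]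
    exact (isIntegral_char (isChar_of_irr hχ) _).neg
  obtain ⟨m, rfl⟩ := this
  exact ⟨m, Nat.pos_of_mul_pos_left hn0, by rw [hn, Nat.cast_mul, cast_q_sub_one]⟩

theorem q_ne_one : (Fintype.card F : ℂ) ≠ 1 := sub_ne_zero.mp q_sub_one_ne_zero

theorem card_noncusp_one : Nat.card {χ : IrrCharacter (GL (Fin 2) F) //
    ¬ Cusp χ.1 ∧ χ.1 1 = 1} = Fintype.card F - 1 := by
  rw [← Nat.card_eq_fintype_card, ← card_mulChar]
  symm
  refine Nat.card_congr (Equiv.ofBijective (fun μ => ⟨⟨LG μ, isIrr_LG μ⟩, not_cusp_LG μ, LG_one μ⟩)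
    ⟨fun μ ν h => LG_injective (congrArg (fun x => x.1.1) h), ?_⟩)
  rintro ⟨⟨χ, hχ⟩, h1, h2⟩
  rcases noncusp_cases hχ h1 with ⟨μ, rfl⟩ | ⟨μ, rfl⟩ | ⟨α, β, -, rfl⟩
  · exact ⟨μ, rfl⟩
  · exact absurd ((StG_one μ).symm.trans h2) q_ne_one
  · exact absurd (add_eq_right.mp ((WG_one α β).symm.trans h2)) q_ne_zero

theorem card_noncusp_q : Nat.card {χ : IrrCharacter (GL (Fin 2) F) //
    ¬ Cusp χ.1 ∧ χ.1 1 = Fintype.card F} = Fintype.card F - 1 := by
  rw [← Nat.card_eq_fintype_card (α := F), ← card_mulChar, Nat.card_eq_fintype_card (α := F)]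
  symm
  refine Nat.card_congr (Equiv.ofBijective
    (fun μ => ⟨⟨StG μ, isIrr_StG μ⟩, not_cusp_StG μ, StG_one μ⟩)
    ⟨fun μ ν h => StG_injective (congrArg (fun x => x.1.1) h), ?_⟩)
  rintro ⟨⟨χ, hχ⟩, h1, h2⟩
  rcases noncusp_cases hχ h1 with ⟨μ, rfl⟩ | ⟨μ, rfl⟩ | ⟨α, β, -, rfl⟩
  · exact absurd ((LG_one μ).symm.trans h2).symm q_ne_one
  · exact ⟨μ, rfl⟩
  · exact absurd (add_eq_left.mp ((WG_one α β).symm.trans h2)) one_ne_zero

theorem card_noncusp_succ : 2 * Nat.card {χ : IrrCharacter (GL (Fin 2) F) //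
    ¬ Cusp χ.1 ∧ χ.1 1 = (Fintype.card F : ℂ) + 1} = (Fintype.card F - 1) * (Fintype.card F - 2) := by
  rw [card_irr_eq_card_set (fun χ => ¬ Cusp χ ∧ χ 1 = (Fintype.card F : ℂ) + 1),
    two_mul_card_of_involutive (Prod.swap : MulChar F ℂ × MulChar F ℂ → _) Prod.swap_swap
      (fun p => WG p.1 p.2)]
  · have e : Nat.card {p : MulChar F ℂ × MulChar F ℂ // p.swap = p} = Nat.card (MulChar F ℂ) :=
      (Nat.card_congr (Equiv.ofBijective (fun α => ⟨(α, α), rfl⟩)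
        ⟨fun a b h => congrArg (fun x => x.1.1) h, by
          rintro ⟨⟨a, b⟩, h⟩
          obtain rfl : b = a := congrArg Prod.fst h
          exact ⟨b, rfl⟩⟩)).symm
    rw [card_subtype_not, e, Nat.card_prod, card_mulChar, Nat.card_eq_fintype_card,
      ← Nat.mul_sub_one]
    rfl
  · intro χ
    constructor
    · rintro ⟨hχ, h1, h2⟩
      rcases noncusp_cases hχ h1 with ⟨μ, rfl⟩ | ⟨μ, rfl⟩ | ⟨α, β, hne, rfl⟩
      · exact absurd (add_eq_right.mp ((LG_one μ).symm.trans h2).symm) q_ne_zero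
      · exact absurd (add_eq_left.mp ((StG_one μ).symm.trans h2).symm) one_ne_zero
      · exact ⟨(α, β), fun h => hne (congrArg Prod.snd h), rfl⟩
    · rintro ⟨⟨α, β⟩, hne, rfl⟩
      have hne' : α ≠ β := fun h => hne (by rw [h]; rfl)
      exact ⟨isIrr_WG hne', not_cusp_WG hne', WG_one α β⟩
  · rintro ⟨a, b⟩ ⟨c, d⟩ _ _
    simp [WG_eq_iff]

theorem sum_ite_eq_card {ι : Type*} [Fintype ι] (p : ι → Prop) [DecidablePred p] (c : ℂ) :
    (∑ i, if p i then c else 0) = Nat.card {i // p i} * c := by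
  rw [← Finset.sum_filter, Finset.sum_const, nsmul_eq_mul, Nat.card_eq_fintype_card,
    Fintype.card_subtype]

open scoped Classical in
theorem sum_irr_GL [Fintype (IrrCharacter (GL (Fin 2) F))] (φ : ℂ → ℂ) :
    ∑ χ : IrrCharacter (GL (Fin 2) F), φ (χ.1 1) =
      (∑ χ : IrrCharacter (GL (Fin 2) F), if Cusp χ.1 then φ (χ.1 1) else 0) +
        ((Fintype.card F : ℂ) - 1) * (φ 1 + φ (Fintype.card F) +
          ((Fintype.card F : ℂ) - 2) / 2 * φ (Fintype.card F + 1)) := by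
  have e : ∀ χ : IrrCharacter (GL (Fin 2) F), φ (χ.1 1) = (if Cusp χ.1 then φ (χ.1 1) else 0) +
      ((if ¬ Cusp χ.1 ∧ χ.1 1 = 1 then φ 1 else 0) +
      (if ¬ Cusp χ.1 ∧ χ.1 1 = Fintype.card F then φ (Fintype.card F) else 0) +
      (if ¬ Cusp χ.1 ∧ χ.1 1 = (Fintype.card F : ℂ) + 1 then φ (Fintype.card F + 1) else 0)) := by
    rintro ⟨χ, hχ⟩
    by_cases h : Cusp χ
    · simp [h]
    · have h1 := q_ne_one (F := F)
      have h2 := q_ne_zero (F := F)
      rcases noncusp_cases hχ h with ⟨μ, rfl⟩ | ⟨μ, rfl⟩ | ⟨α, β, hne, rfl⟩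
      · simp [h, LG_one, h1.symm, h2]
      · simp [h, StG_one, h1]
      · simp [h, WG_one, h2]
  rw [Finset.sum_congr rfl fun χ _ => e χ]
  simp only [Finset.sum_add_distrib, sum_ite_eq_card, card_noncusp_one, card_noncusp_q,
    cast_q_sub_one]
  have h3 := congrArg (Nat.cast : ℕ → ℂ) (card_noncusp_succ (F := F))
  rw [Nat.cast_mul, Nat.cast_mul, cast_q_sub_one, Nat.cast_sub Fintype.one_lt_card] at h3
  push_cast at h3
  linear_combination φ (Fintype.card F + 1) / 2 * h3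

omit [DecidableEq F] in
theorem card_irr_GL2 : (Nat.card (IrrCharacter (GL (Fin 2) F)) : ℂ) = (Fintype.card F : ℂ) ^ 2 - 1 := by
  rw [card_irr_eq_card_conjClasses, S2330.result,
    Nat.cast_sub (Nat.one_le_pow _ _ Fintype.card_pos)]
  simp

theorem Cusp.degree {χ : GL (Fin 2) F → ℂ} (hχ : IsIrrCharacter _ χ) (h : Cusp χ) :
    χ 1 = (Fintype.card F : ℂ) - 1 := by
  classical
  have := Fintype.ofFinite (IrrCharacter (GL (Fin 2) F))
  have h1 := sum_irr_GL (F := F) (fun z => z ^ 2 - ((Fintype.card F : ℂ) - 1) ^ 2)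
  rw [Finset.sum_sub_distrib, sum_degree_sq, Finset.sum_const, Finset.card_univ,
    ← Nat.card_eq_fintype_card, nsmul_eq_mul, card_irr_GL2, cast_card_GL2] at h1
  have hm : ∀ ψ : IrrCharacter (GL (Fin 2) F), ∃ m : ℕ, 1 ≤ m ∧
      (Cusp ψ.1 → ψ.1 1 = ((Fintype.card F : ℂ) - 1) * m) := fun ψ => by
    by_cases hc : Cusp ψ.1
    · obtain ⟨m, h1, h2⟩ := hc.exists_mul ψ.2
      exact ⟨m, h1, fun _ => h2⟩
    · exact ⟨1, le_rfl, fun h => absurd h hc⟩
  choose m hm1 hm2 using hm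
  have e : ∀ ψ : IrrCharacter (GL (Fin 2) F),
      (if Cusp ψ.1 then ψ.1 1 ^ 2 - ((Fintype.card F : ℂ) - 1) ^ 2 else 0) =
        ((Fintype.card F : ℂ) - 1) ^ 2 * ((if Cusp ψ.1 then m ψ ^ 2 - 1 else 0 : ℕ) : ℂ) := by
    intro ψ
    split_ifs with hc
    · rw [hm2 ψ hc, Nat.cast_sub (Nat.one_le_pow _ _ (hm1 ψ))]; push_cast; ring
    · simp
  rw [Finset.sum_congr rfl fun ψ _ => e ψ, ← Finset.mul_sum, ← Nat.cast_sum] at h1
  have h2 : ((Fintype.card F : ℂ) - 1) ^ 2 * ((∑ ψ : IrrCharacter (GL (Fin 2) F),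
      if Cusp ψ.1 then m ψ ^ 2 - 1 else 0 : ℕ) : ℂ) = 0 := by linear_combination -h1
  rw [mul_eq_zero, Nat.cast_eq_zero, Finset.sum_eq_zero_iff] at h2
  have h3 := h2.resolve_left (pow_ne_zero _ q_sub_one_ne_zero) ⟨χ, hχ⟩ (Finset.mem_univ _)
  rw [if_pos h] at h3
  have h4 : m ⟨χ, hχ⟩ = 1 := by have := hm1 ⟨χ, hχ⟩; nlinarith [Nat.sub_eq_zero_iff_le.mp h3]
  have := hm2 ⟨χ, hχ⟩ h
  rwa [h4, Nat.cast_one, mul_one] at this

theorem card_cusp : 2 * Nat.card {χ : IrrCharacter (GL (Fin 2) F) // Cusp χ.1} =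
    Fintype.card F * (Fintype.card F - 1) := by
  classical
  have := Fintype.ofFinite (IrrCharacter (GL (Fin 2) F))
  have h1 := sum_irr_GL (F := F) (fun _ => 1)
  rw [Finset.sum_const, Finset.card_univ, ← Nat.card_eq_fintype_card, nsmul_eq_mul, card_irr_GL2,
    sum_ite_eq_card] at h1
  have : ((2 * Nat.card {χ : IrrCharacter (GL (Fin 2) F) // Cusp χ.1} : ℕ) : ℂ) =
      (Fintype.card F * (Fintype.card F - 1) : ℕ) := by
    push_cast [cast_q_sub_one]
    linear_combination -2 * h1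
  exact_mod_cast this

/-- The irreducible characters of `GL₂` with their degrees. -/
theorem GL_irr_cases_deg {χ : GL (Fin 2) F → ℂ} (hχ : IsIrrCharacter _ χ) {n : ℕ} (hn : χ 1 = n) :
    ((∃ μ, χ = LG μ) ∧ n = 1) ∨ ((∃ μ, χ = StG μ) ∧ n = Fintype.card F) ∨
      ((∃ α β, α ≠ β ∧ χ = WG α β) ∧ n = Fintype.card F + 1) ∨
      (Cusp χ ∧ n + 1 = Fintype.card F) := by
  by_cases h : Cusp χ
  · refine Or.inr (Or.inr (Or.inr ⟨h, ?_⟩))
    rw [h.degree hχ] at hn
    have : ((n + 1 : ℕ) : ℂ) = Fintype.card F := by push_cast; linear_combination -hn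
    exact_mod_cast this
  · rcases noncusp_cases hχ h with ⟨μ, rfl⟩ | ⟨μ, rfl⟩ | ⟨α, β, hne, rfl⟩
    · rw [LG_one] at hn
      exact Or.inl ⟨⟨μ, rfl⟩, by exact_mod_cast hn.symm⟩
    · rw [StG_one] at hn
      exact Or.inr (Or.inl ⟨⟨μ, rfl⟩, by exact_mod_cast hn.symm⟩)
    · rw [WG_one] at hn
      exact Or.inr (Or.inr (Or.inl ⟨⟨α, β, hne, rfl⟩, by exact_mod_cast hn.symm⟩))

end Cfsg.Agent.Ch2
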