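/-
Gelfand's trick for a character induced from a linear character.
-/
import Cfsg.Agent.Lib.Char.Induced
import Cfsg.Agent.Lib.Char.Gen

set_option autoImplicit false
set_option linter.unusedSectionVars false

namespace Cfsg.Agent.Char

open Cfsg
open scoped ComplexConjugate

variable {G : Type*} [Group G] [Fintype G]

/-- the double coset of `g` does not support a function of the Hecke algebra -/
def Irrel (U : Subgroup G) (l : U → ℂ) (g : G) : Prop :=
  ∃ u u' : U, (u : G) * g = g * u' ∧ l u ≠ l u'

theorem range_le_of_irr {V : Type*} [AddCommGroup V] [Module ℂ V] {ρ : Representation ℂ G V}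
    (hρ : ρ.IsIrreducible) (E : Module.End ℂ V) {v : V} (hv : v ≠ 0) (P : Submodule ℂ V)
    (h : ∀ g, E (ρ g v) ∈ P) : LinearMap.range E ≤ P := by
  let W : Subrepresentation ρ :=
    { toSubmodule := Submodule.span ℂ (Set.range fun g => ρ g v)
      apply_mem_toSubmodule := fun g w hw => by
        have : Submodule.span ℂ (Set.range fun g => ρ g v) ≤
            (Submodule.span ℂ (Set.range fun g => ρ g v)).comap (ρ g) := by
          rw [Submodule.span_le]
          rintro _ ⟨k, rfl⟩
          refine Submodule.subset_span ⟨g * k, ?_⟩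
          simp
        exact this hw }
  rcases hρ.eq_bot_or_eq_top W with h1 | h1
  · exfalso
    apply hv
    have h2 : v ∈ W.toSubmodule := Submodule.subset_span ⟨1, by simp⟩
    rw [h1] at h2
    exact h2
  · rintro _ ⟨w, rfl⟩
    have h2 : w ∈ W.toSubmodule := by rw [h1]; trivial
    have h3 : W.toSubmodule ≤ P.comap E := by
      change Submodule.span ℂ _ ≤ _
      rw [Submodule.span_le]
      rintro _ ⟨k, rfl⟩
      exact h k
    exact h3 h2

theorem mult_le_one (U : Subgroup G) [Fintype U] (l : U → ℂ) (hl1 : l 1 = 1)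
    (hm : ∀ a b, l (a * b) = l a * l b) (θ : G → G) (hθ : ∀ a b, θ (a * b) = θ b * θ a)
    (θU : U ≃ U) (hθU : ∀ u, (θU u : G) = θ u ∧ l (θU u) = l u)
    (h : ∀ g, (∃ u u' : U, θ g = u * g * u' ∧ l u * l u' = 1) ∨ Irrel U l g)
    {χ : G → ℂ} (hχ : IsIrrCharacter G χ) :
    classInner χ (indFun U l) = 0 ∨ classInner χ (indFun U l) = 1 := by
  rw [inner_indFun_right U l (isClass_of_irr hχ)]
  obtain ⟨n, ρ, hρ, rfl⟩ := hχ
  let E : Module.End ℂ (Fin n → ℂ) := (Nat.card U : ℂ)⁻¹ • ∑ r : U, conj (l r) • ρ r
  have hU := natCard_ne_zero (G := U)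
  have hc := mul_conj_eq_one_of_mul hl1 hm
  have hE1 : ∀ a : U, ρ a * E = l a • E := by
    intro a
    simp only [E, mul_smul_comm, Finset.mul_sum, ← map_mul, smul_comm (l a), Finset.smul_sum]
    refine Fintype.sum_equiv (Equiv.mulLeft a) _ _ fun r => ?_
    simp only [Equiv.coe_mulLeft, hm, map_mul, smul_smul, Subgroup.coe_mul]
    congr 1
    linear_combination (-(Nat.card U : ℂ)⁻¹ * conj (l r)) * hc a
  have hE2 : ∀ a : U, E * ρ a = l a • E := by
    intro a
    simp only [E, smul_mul_assoc, Finset.sum_mul, ← map_mul, smul_comm (l a), Finset.smul_sum]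
    refine Fintype.sum_equiv (Equiv.mulRight a) _ _ fun r => ?_
    simp only [Equiv.coe_mulRight, hm, map_mul, smul_smul, Subgroup.coe_mul]
    congr 1
    linear_combination (-(Nat.card U : ℂ)⁻¹ * conj (l r)) * hc a
  have hEE : E * E = E := by
    conv_lhs => enter [1]; unfold E
    simp only [smul_mul_assoc, Finset.sum_mul, hE1, smul_smul, mul_comm (conj (l _)), hc, one_smul,
      Finset.sum_const, Finset.card_univ, ← Nat.cast_smul_eq_nsmul ℂ, ← Nat.card_eq_fintype_card,
      inv_mul_cancel₀ hU]
  let A : G → Module.End ℂ (Fin n → ℂ) := fun g => E * ρ g * E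
  have hA : ∀ (u u' : U) g, A (u * g * u') = (l u * l u') • A g := by
    intro u u' g
    simp only [A, map_mul]
    rw [show E * (ρ u * ρ g * ρ u') * E = (E * ρ u) * ρ g * (ρ u' * E) by noncomm_ring, hE1, hE2]
    simp [smul_smul, mul_comm]
  have hI : ∀ g, Irrel U l g → A g = 0 := by
    rintro g ⟨u, u', h1, h2⟩
    have h3 := hA u 1 g
    have h4 := hA 1 u' g
    simp only [Subgroup.coe_one, mul_one, one_mul, hl1] at h3 h4
    rw [h1, h4] at h3
    have h5 : (l u' - l u) • A g = 0 := by
      refine LinearMap.ext fun v => ?_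
      have := LinearMap.congr_fun h3 v
      simp only [LinearMap.smul_apply] at this ⊢
      rw [sub_smul, this, sub_self, LinearMap.zero_apply]
    exact (smul_eq_zero.1 h5).resolve_left (sub_ne_zero.2 h2.symm)
  have hAθ : ∀ g, A (θ g) = A g := by
    intro g
    rcases h g with ⟨u, u', h1, h2⟩ | h1
    · rw [h1, hA, h2, one_smul]
    · rw [hI g h1, hI]
      obtain ⟨u, u', h1, h2⟩ := h1
      refine ⟨θU u', θU u, ?_, by rw [(hθU u).2, (hθU u').2]; exact h2.symm⟩
      rw [(hθU u).1, (hθU u').1, ← hθ, ← hθ, h1]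
  have hAA : ∀ g k, A g * A k = (Nat.card U : ℂ)⁻¹ • ∑ r : U, conj (l r) • A (g * r * k) := by
    intro g k
    simp only [A, map_mul]
    rw [show E * ρ g * E * (E * ρ k * E) = E * ρ g * (E * E) * ρ k * E by noncomm_ring, hEE]
    conv_lhs => enter [1, 1, 2]; unfold E
    simp only [mul_smul_comm, smul_mul_assoc, Finset.mul_sum, Finset.sum_mul, mul_assoc]
  have hcomm : ∀ g k, A g * A k = A k * A g := by
    intro g k
    rw [hAA, ← hAθ k, ← hAθ g, hAA]
    congr 1
    refine Fintype.sum_equiv θU _ _ fun r => ?_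
    rw [(hθU r).1, (hθU r).2, ← hAθ, hθ, hθ, mul_assoc]
  have hproj : LinearMap.IsProj (LinearMap.range E) E :=
    ⟨fun x => ⟨x, rfl⟩, by
      rintro _ ⟨x, rfl⟩
      exact LinearMap.congr_fun hEE x⟩
  have htr : classInner (fun h : U => ρ.character h) l = Module.finrank ℂ (LinearMap.range E) := by
    rw [← hproj.trace]
    simp [E, classInner, Representation.character, mul_comm]
  rw [htr]
  by_cases h0 : LinearMap.range E = ⊥
  · left; rw [h0]; simp
  right
  obtain ⟨v0, hv0, hv0'⟩ := Submodule.exists_mem_ne_zero_of_ne_bot h0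
  have hsc : ∀ g, ∃ c : ℂ, ∀ w ∈ LinearMap.range E, A g w = c • w := by
    intro g
    have : Nontrivial (LinearMap.range E) := Submodule.nontrivial_iff_ne_bot.2 h0
    obtain ⟨c, hc⟩ := Module.End.exists_eigenvalue ((A g).restrict
      (p := LinearMap.range E) (q := LinearMap.range E) fun x _ => ⟨_, rfl⟩)
    obtain ⟨v, hv⟩ := hc.exists_hasEigenvector
    have h1 : A g v = c • (v : Fin n → ℂ) := congrArg Subtype.val hv.apply_eq_smul
    refine ⟨c, fun w hw => ?_⟩
    have := range_le_of_irr hρ E (v := v) (by simpa using hv.2) (Module.End.eigenspace (A g) c)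
      (fun k => by
        have h2 : E (ρ k v) = A k v := by
          simp only [A, Module.End.mul_apply, hproj.map_id v v.2]
        rw [h2, Module.End.mem_eigenspace_iff, ← Module.End.mul_apply, hcomm, Module.End.mul_apply,
          h1, map_smul]) hw
    exact Module.End.mem_eigenspace_iff.1 this
  have h1 := range_le_of_irr hρ E hv0' (Submodule.span ℂ {v0}) fun k => by
    obtain ⟨c, hc⟩ := hsc k
    have h2 : E (ρ k v0) = A k v0 := by
      simp only [A, Module.End.mul_apply, hproj.map_id v0 hv0]
    rw [h2, hc v0 hv0]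
    exact Submodule.smul_mem _ _ (Submodule.subset_span rfl)
  have h2 : LinearMap.range E = Submodule.span ℂ {v0} :=
    le_antisymm h1 (by rw [Submodule.span_le]; simpa using hv0)
  rw [h2, finrank_span_singleton hv0']
  simp

theorem inner_indFun_self (U : Subgroup G) [Fintype U] (l : U → ℂ) (hl1 : l 1 = 1)
    (hm : ∀ a b, l (a * b) = l a * l b) {R : Type*} [Fintype R] (r : R → G)
    (h1 : ∀ g, (∃ (i : R) (u u' : U), g = u * r i * u') ∨ Irrel U l g)
    (h2 : ∀ i, ¬ Irrel U l (r i))
    (h3 : ∀ (i j : R) (u u' : U), u * r i = r j * u' → i = j) :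
    classInner (indFun U l) (indFun U l) = Fintype.card R := by
  classical
  have hU := natCard_ne_zero (G := U)
  have hc := mul_conj_eq_one_of_mul hl1 hm
  rw [inner_indFun_left U l (isClass_indFun U l)]
  let k : G → ℂ := fun x => ∑ p : U × U, if (p.1 : G) * x = x * p.2 then l p.1 * conj (l p.2) else 0
  have hk : ∀ x, ∑ u : U, l u * conj (extendByZero U l (x⁻¹ * u * x)) = k x := by
    intro x
    simp only [k, Fintype.sum_prod_type]
    refine Finset.sum_congr rfl fun u _ => ?_
    by_cases hu : x⁻¹ * u * x ∈ U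
    · rw [extendByZero_of_mem U l hu, Finset.sum_eq_single ⟨_, hu⟩, if_pos (by simp [mul_assoc])]
      · intro b _ hb
        rw [if_neg]
        intro h
        apply hb
        ext
        simp [mul_assoc, h]
      · simp
    · rw [extendByZero_of_notMem U l hu, map_zero, mul_zero, Finset.sum_eq_zero]
      intro b _
      rw [if_neg]
      intro h
      apply hu
      simp [mul_assoc, h]
  have hk2 : ∀ x, k x = ∑ i : R, ∑ p : U × U, if (p.1 : G) * r i * p.2 = x then 1 else 0 := by
    intro x
    by_cases hx : ∃ (i : R) (u u' : U), x = u * r i * u'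
    · obtain ⟨i, a, b, rfl⟩ := hx
      rw [Finset.sum_eq_single i]
      · refine Fintype.sum_equiv ((Equiv.mulRight a).prodCongr
          ((Equiv.inv U).trans (Equiv.mulLeft b))) _ _ fun p => ?_
        have e : ((p.1 : G) * (a * r i * b) = a * r i * b * p.2) ↔
            ((p.1 * a : U) : G) * r i * (b * p.2⁻¹ : U) = a * r i * b := by
          simp only [Subgroup.coe_mul, Subgroup.coe_inv]
          rw [← mul_inv_eq_iff_eq_mul]
          simp only [mul_assoc]
        change _ = if ((p.1 * a : U) : G) * r i * (b * p.2⁻¹ : U) = a * r i * b then 1 else 0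
        simp only [← e]
        split_ifs with hp
        · have h4 : l (a⁻¹ * p.1 * a) = l (b * p.2 * b⁻¹) := by
            by_contra h4
            refine h2 i ⟨_, _, ?_, h4⟩
            simp only [Subgroup.coe_mul, Subgroup.coe_inv]
            calc (a : G)⁻¹ * p.1 * a * r i = (a : G)⁻¹ * (p.1 * (a * r i * b)) * (b : G)⁻¹ := by
                  group
              _ = _ := by rw [hp]; group
          have h5 : ∀ a b : U, l (a⁻¹ * b * a) = l b := by
            intro a b
            rw [hm, hm, mul_right_comm, ← hm, inv_mul_cancel, hl1, one_mul]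
          have h6 := h5 b⁻¹ p.2
          rw [inv_inv] at h6
          rw [h5, h6] at h4
          rw [h4, hc]
        · rfl
      · intro j _ hj
        refine Finset.sum_eq_zero fun p _ => if_neg fun h => hj ?_
        refine h3 j i (a⁻¹ * p.1) (b * p.2⁻¹) ?_
        simp only [Subgroup.coe_mul, Subgroup.coe_inv]
        rw [← mul_assoc, eq_mul_inv_iff_mul_eq, mul_assoc, mul_assoc, ← mul_assoc (p.1 : G), h]
        group
      · simp
    · rw [Finset.sum_eq_zero fun i _ => Finset.sum_eq_zero fun p _ =>
        if_neg fun h => hx ⟨i, p.1, p.2, h.symm⟩]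
      obtain ⟨u, u', h4, h5⟩ := (h1 x).resolve_left hx
      have h6 : l u * conj (l u') * k x = k x := by
        simp only [k, Finset.mul_sum]
        refine Fintype.sum_equiv ((Equiv.mulLeft u).prodCongr (Equiv.mulLeft u')) _ _ fun p => ?_
        change _ = if ((u * p.1 : U) : G) * x = x * (u' * p.2 : U) then
          l (u * p.1) * conj (l (u' * p.2)) else 0
        have e : (((u * p.1 : U) : G) * x = x * (u' * p.2 : U)) ↔ (p.1 : G) * x = x * p.2 := by
          simp only [Subgroup.coe_mul]
          rw [← mul_assoc x, ← h4, mul_assoc, mul_assoc, mul_right_inj]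
        simp only [e, hm, map_mul]
        split_ifs
        · ring
        · simp
      by_contra h7
      apply h5
      have h8 := (mul_eq_right₀ h7).1 h6
      have h9 := hc u'
      linear_combination l u' * h8 - l u * h9
  unfold classInner indFun
  simp only [map_mul, map_sum, map_inv₀, map_natCast, mul_left_comm (l _), ← Finset.mul_sum]
  rw [Finset.sum_congr rfl fun (i : U) _ => Finset.mul_sum _ _ (l i), Finset.sum_comm]
  simp only [hk, hk2]
  rw [Finset.sum_comm]
  simp only [Finset.sum_comm (s := (Finset.univ : Finset G)), Finset.sum_ite_eq, Finset.mem_univ,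
    if_true, Finset.sum_const, Finset.card_univ, nsmul_eq_mul, Fintype.card_prod,
    ← Nat.card_eq_fintype_card (α := U)]
  push_cast
  field_simp

theorem card_constituents {Γ : G → ℂ} (hΓ : IsClassFunction G Γ)
    (h : ∀ χ, IsIrrCharacter G χ → classInner χ Γ = 0 ∨ classInner χ Γ = 1) :
    (Nat.card {χ : IrrCharacter G // classInner (χ : G → ℂ) Γ ≠ 0} : ℂ) = classInner Γ Γ := by
  classical
  have := Fintype.ofFinite (IrrCharacter G)
  rw [inner_eq_sum_irr hΓ, Nat.card_eq_fintype_card, Fintype.card_subtype, Finset.card_filter]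
  push_cast
  refine Finset.sum_congr rfl fun χ _ => ?_
  rw [← conj_inner (χ : G → ℂ) Γ]
  rcases h χ χ.2 with h1 | h1 <;> simp [h1]

end Cfsg.Agent.Char
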