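import Cfsg.Agent.Lib.Char.SL2C

/-!
# Characters of `SL₂`: the field with three elements, cyclic subgroups of order `q + 1`
-/

set_option autoImplicit false

open Cfsg Cfsg.Agent.Char Cfsg.Agent.SL2 Matrix
open scoped ComplexConjugate MatrixGroups

namespace Cfsg.Agent.Ch2

variable {F : Type*} [Field F] [Fintype F] [DecidableEq F]

omit [DecidableEq F] in
theorem sq_eq_one_of_card_three (h3 : Fintype.card F = 3) {a : F} (ha : a ≠ 0) : a ^ 2 = 1 := by
  have := FiniteField.pow_card_sub_one_eq_one a ha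
  rwa [h3] at this

omit [DecidableEq F] in
theorem theta_add_inv_of_three (h3 : Fintype.card F = 3) {c : SL(2, F)} (hc : NoRoot c.1)
    {θ : Ct c →* ℂˣ} (hθ : θ ^ 2 ≠ 1) (x : Ct c) (hx : ¬ IsScal x.1.1) :
    (θ x : ℂ) + (θ x)⁻¹.val = 0 := by
  have h2 : (2 : F) ≠ 0 := two_ne_zero_of_odd (by rw [h3]; decide)
  have h4 : ∀ y : Ct c, y ^ 4 = 1 := fun y => by
    have := pow_card_eq_one' (x := y)
    rwa [card_Ct hc, h3] at this
  have key : ∀ y : Ct c, y ^ 2 = 1 ∨ y ^ 2 = ⟨-1, neg_one_mem_cent c⟩ := fun y => by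
    have : (y.1 ^ 2) * (y.1 ^ 2) = 1 := by
      rw [← pow_add]; exact congrArg Subtype.val (h4 y)
    rcases SL_sq_eq_one h2 this with h | h
    exacts [Or.inl (Subtype.ext h), Or.inr (Subtype.ext h)]
  obtain ⟨y, hy⟩ := hom_sq_ne_one_iff.mp hθ
  have hy2 : y ^ 2 = ⟨-1, neg_one_mem_cent c⟩ :=
    (key y).resolve_left fun h => hy (by rw [← map_pow, h, map_one])
  have hx2 : x ^ 2 = ⟨-1, neg_one_mem_cent c⟩ := (key x).resolve_left fun h => hx (by
    rw [SL_isScal_iff]
    exact SL_sq_eq_one h2 (by rw [← sq]; exact congrArg Subtype.val h))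
  have e1 : (θ x : ℂ) ^ 2 ≠ 1 := by
    rw [← map_pow, hy2, ← hx2, map_pow] at hy
    exact fun h => hy (Units.ext h)
  have e2 : ((θ x : ℂ) ^ 2) ^ 2 = 1 := by
    rw [← pow_mul, ← Units.val_pow_eq_pow_val, ← map_pow, h4]; simp
  have e3 := (sq_eq_one_iff.mp e2).resolve_left e1
  have h0 : (θ x : ℂ) ≠ 0 := Units.ne_zero _
  rw [Units.val_inv_eq_inv_val]
  field_simp
  linear_combination e3

theorem R_noRoot_of_three (h3 : Fintype.card F = 3) {g : SL(2, F)} (hg : NoRoot g.1)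
    {θ : Ct g →* ℂˣ} (hθ : θ ^ 2 ≠ 1) : R θ g = 0 := by
  have := R_ell hg θ ⟨g, self_mem_cent g⟩ (not_isScal_of_noRoot hg)
  rw [theta_add_inv_of_three h3 hg hθ ⟨g, self_mem_cent g⟩ (not_isScal_of_noRoot hg), neg_zero] at this
  exact this

omit [DecidableEq F] in
theorem noRoot_of_orderOf (hodd : Odd (Fintype.card F)) {c : SL(2, F)}
    (hc : orderOf c = Fintype.card F + 1) : NoRoot c.1 := by
  have h2 := two_ne_zero_of_odd hodd
  have h1 := Fintype.one_lt_card (α := F)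
  obtain ⟨k, hk⟩ := hodd
  rw [SL_noRoot_iff]
  rcases SL_trace_cases c.1.trace with h | ⟨a, ha, ht⟩ | h
  · exact h
  · have := Nat.le_of_dvd (by rw [Nat.card_eq_fintype_card]; omega)
      (orderOf_dvd_of_pow_eq_one (SL_pow_of_split ha ht))
    rw [Nat.card_eq_fintype_card] at this
    omega
  · exfalso
    by_cases hs : IsScal c.1
    · have : c ^ 2 = 1 := by rcases SL_isScal_iff.mp hs with h | h <;> simp [h]
      have := Nat.le_of_dvd two_pos (orderOf_dvd_of_pow_eq_one this)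
      omega
    · have h3 := orderOf_dvd_of_pow_eq_one (pow_card_cent c)
      rw [card_cent_SL_double_odd h2 hs h, hc, Nat.card_eq_fintype_card] at h3
      have h4 : Fintype.card F + 1 ∣ 2 := (Nat.dvd_add_right h3).mp ⟨2, by ring⟩
      have := Nat.le_of_dvd two_pos h4
      omega

omit [DecidableEq F] in
theorem exists_eq_Ct (hodd : Odd (Fintype.card F)) (C : Subgroup SL(2, F)) (hC : IsCyclic C)
    (hcard : Nat.card C = Fintype.card F + 1) : ∃ c : SL(2, F), NoRoot c.1 ∧ C = Ct c := by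
  obtain ⟨c, hc⟩ := IsCyclic.exists_generator (α := C)
  have h1 : orderOf c.1 = Fintype.card F + 1 := by
    rw [Subgroup.orderOf_coe, orderOf_eq_card_of_forall_mem_zpowers hc, hcard]
  have h2 := noRoot_of_orderOf hodd h1
  refine ⟨c.1, h2, Subgroup.eq_of_le_of_card_ge (fun x hx => ?_) (by rw [card_Ct h2, hcard])⟩
  rw [mem_cent_iff]
  exact congrArg Subtype.val (mul_comm' (⟨x, hx⟩ : C) c)

end Cfsg.Agent.Ch2
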